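import Mathlib
import Cfsg.Prelude.Def_LinearParabolics
import Cfsg.Agent.S2420

/-!
The degree formula for the partition-indexed class functions of `GL_n(q)`.
-/

set_option autoImplicit false
set_option linter.unusedSectionVars false
set_option linter.style.haveILetI false

namespace Cfsg.Agent.Lib.GLUnip.Degree

open Finset Cfsg
open scoped MatrixGroups

variable {n : ℕ}

/-- The `q`-integer in `ℂ`. -/
noncomputable def QC (q k : ℕ) : ℂ := ((∑ l ∈ range k, q ^ l : ℕ) : ℂ)

/-- The `q`-factorial in `ℂ`. -/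
noncomputable def Qf (q r : ℕ) : ℂ := ∏ j ∈ range r, QC q (j + 1)

theorem Qf_zero (q : ℕ) : Qf q 0 = 1 := by simp [Qf]

theorem Qf_succ (q r : ℕ) : Qf q (r + 1) = Qf q r * QC q (r + 1) := by
  rw [Qf, Finset.prod_range_succ]
  rfl

theorem QC_sub {q k m : ℕ} (h : k ≤ m) : QC q m - QC q k = (q : ℂ) ^ k * QC q (m - k) := by
  obtain ⟨d, rfl⟩ := Nat.exists_eq_add_of_le h
  rw [Nat.add_sub_cancel_left, QC, QC, QC, Finset.sum_range_add]
  push_cast
  rw [add_sub_cancel_left, Finset.mul_sum]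
  apply Finset.sum_congr rfl
  intro l _
  rw [pow_add]

/-- The falling product. -/
noncomputable def ff (q j : ℕ) (Y : ℂ) : ℂ := ∏ k ∈ range j, (Y - QC q k)

theorem ff_zero_of_lt {q j m : ℕ} (h : m < j) : ff q j (QC q m) = 0 := by
  apply Finset.prod_eq_zero (Finset.mem_range.mpr h)
  rw [sub_self]

/-- The factor `∏_{k<j} q^k`. -/
noncomputable def FF (q j : ℕ) : ℂ := ∏ k ∈ range j, (q : ℂ) ^ k

theorem ff_mul {q j m : ℕ} (h : j ≤ m) : ff q j (QC q m) * Qf q (m - j) = FF q j * Qf q m := by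
  induction j with
  | zero => simp [ff, FF]
  | succ j ih =>
    have ih' := ih (by omega)
    have h1 : m - j = (m - (j + 1)) + 1 := by omega
    rw [h1, Qf_succ] at ih'
    rw [ff, Finset.prod_range_succ, FF, Finset.prod_range_succ, QC_sub (by omega)]
    rw [← h1] at ih'
    have h2 : ff q j (QC q m) * (Qf q (m - (j + 1)) * QC q (m - j)) = FF q j * Qf q m := ih'
    have h3 : ff q j (QC q m) = ∏ k ∈ range j, (QC q m - QC q k) := rfl
    have h4 : FF q j = ∏ k ∈ range j, (q : ℂ) ^ k := rfl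
    rw [← h3, ← h4]
    calc ff q j (QC q m) * ((q : ℂ) ^ j * QC q (m - j)) * Qf q (m - (j + 1))
        = (q : ℂ) ^ j * (ff q j (QC q m) * (Qf q (m - (j + 1)) * QC q (m - j))) := by ring
      _ = _ := by rw [h2]; ring

/-- The polynomial form of the falling product. -/
noncomputable def pp (q j : ℕ) : Polynomial ℂ :=
  ∏ k ∈ range j, (Polynomial.X - Polynomial.C (QC q k))

theorem pp_monic (q j : ℕ) : (pp q j).Monic :=
  Polynomial.monic_prod_of_monic _ _ fun _ _ => Polynomial.monic_X_sub_C _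

theorem pp_natDegree (q j : ℕ) : (pp q j).natDegree = j := by
  rw [pp, Polynomial.natDegree_prod_of_monic _ _ fun k _ => Polynomial.monic_X_sub_C _]
  simp

theorem pp_eval (q j : ℕ) (Y : ℂ) : (pp q j).eval Y = ff q j Y := by
  rw [pp, Polynomial.eval_prod, ff]
  simp

/-- The alternating sum of falling products is the Vandermonde determinant. -/
theorem sum_sign_ff (q : ℕ) (Y : Fin n → ℂ) :
    ∑ κ : Equiv.Perm (Fin n), ((Equiv.Perm.sign κ : ℤ) : ℂ) * ∏ i, ff q (κ i).val (Y i) =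
      ∏ i, ∏ j ∈ univ.filter (fun j : Fin n => i < j), (Y j - Y i) := by
  have h1 := Matrix.det_eval_matrixOfPolynomials_eq_det_vandermonde Y (fun j : Fin n => pp q j.val)
    (fun j => pp_natDegree q j.val) (fun j => pp_monic q j.val)
  rw [Matrix.det_vandermonde] at h1
  have h2 : ∏ i, ∏ j ∈ univ.filter (fun j : Fin n => i < j), (Y j - Y i) =
      ∏ i, ∏ j ∈ Ioi i, (Y j - Y i) := by
    apply Finset.prod_congr rfl
    intro i _
    apply Finset.prod_congr _ fun _ _ => rfl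
    ext j
    simp
  rw [h2, h1, ← Matrix.det_transpose, Matrix.det_apply]
  apply Finset.sum_congr rfl
  intro κ _
  rw [Units.smul_def, zsmul_eq_mul]
  congr 1
  apply Finset.prod_congr rfl
  intro i _
  simp [pp_eval]

theorem sum_triangle (m : ℕ) : 6 * ∑ j ∈ range (m + 2), ∑ k ∈ range j, k = (m + 2) * (m + 1) * m := by
  induction m with
  | zero => simp [Finset.sum_range_succ]
  | succ m ih =>
    rw [Finset.sum_range_succ, mul_add, ih]
    have h := Finset.sum_range_id_mul_two (m + 2)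
    have h2 : m + 2 - 1 = m + 1 := rfl
    rw [h2] at h
    have h3 : 6 * ∑ k ∈ range (m + 2), k = 3 * ((∑ k ∈ range (m + 2), k) * 2) := by ring
    rw [h3, h]
    ring

theorem sum_triangle' (n : ℕ) : ∑ j ∈ range n, ∑ k ∈ range j, k = n * (n - 1) * (n - 2) / 6 := by
  rcases n with _ | _ | m
  · simp
  · simp
  · have h := sum_triangle m
    have h2 : m + 1 + 1 = m + 2 := rfl
    rw [h2]
    have e1 : m + 2 - 1 = m + 1 := rfl
    have e2 : m + 2 - 2 = m := rfl
    rw [e1, e2, ← h]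
    simp

theorem prod_FF (q n : ℕ) : ∏ j : Fin n, FF q j.val = (q : ℂ) ^ (n * (n - 1) * (n - 2) / 6) := by
  rw [Fin.prod_univ_eq_prod_range (fun j => FF q j) n, ← sum_triangle']
  have h : ∀ j, ∏ k ∈ range j, (q : ℂ) ^ k = (q : ℂ) ^ (∑ k ∈ range j, k) := fun j =>
    Finset.prod_pow_eq_pow_sum _ _ _
  simp only [FF]
  simp_rw [h]
  exact Finset.prod_pow_eq_pow_sum _ _ _

variable {F : Type*} [Field F] [Fintype F]

/-- The class function at `1`. -/
theorem fixedPoint_one (H : Subgroup (GL (Fin n) F)) :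
    fixedPointCharacter H 1 = (Nat.card (GL (Fin n) F ⧸ H) : ℂ) := by
  unfold fixedPointCharacter
  congr 1
  apply Nat.card_congr
  refine (Equiv.subtypeUnivEquiv ?_)
  intro x
  simp

/-- The composition attached to a permutation. -/
def comp (ν : Fin n → ℕ) (κ : Equiv.Perm (Fin n)) : Fin n → ℕ := fun i => ν i + i.val - (κ i).val

theorem sum_comp {ν : Fin n → ℕ} (hsum : ∑ i, ν i = n) {κ : Equiv.Perm (Fin n)}
    (h : ∀ i, (κ i).val ≤ ν i + i.val) : ∑ i, comp ν κ i = n := by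
  have h1 : ∑ i, (comp ν κ i + (κ i).val) = ∑ i, (ν i + i.val) := by
    apply Finset.sum_congr rfl
    intro i _
    exact Nat.sub_add_cancel (h i)
  rw [Finset.sum_add_distrib, Finset.sum_add_distrib, hsum,
    Equiv.sum_comp κ (fun i : Fin n => i.val)] at h1
  omega

/-- The degree formula. -/
theorem degree_formula {q : ℕ} (hq : Fintype.card F = q) (ν : Fin n → ℕ) (hsum : ∑ i, ν i = n) :
    unipotentCharacterGL n F ν 1 * (q : ℂ) ^ (n * (n - 1) * (n - 2) / 6) *
        ∏ i : Fin n, ∏ j ∈ range (ν i + i.val), ((∑ l ∈ range (j + 1), q ^ l : ℕ) : ℂ) =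
      (∏ j ∈ range n, ((∑ l ∈ range (j + 1), q ^ l : ℕ) : ℂ)) *
        ∏ i : Fin n, ∏ j ∈ univ.filter (fun j : Fin n => i < j),
          (((∑ l ∈ range (ν j + j.val), q ^ l : ℕ) : ℂ) - ((∑ l ∈ range (ν i + i.val), q ^ l : ℕ) : ℂ)) := by
  classical
  have hLF : ∏ i : Fin n, ∏ j ∈ range (ν i + i.val), ((∑ l ∈ range (j + 1), q ^ l : ℕ) : ℂ) =
      ∏ i : Fin n, Qf q (ν i + i.val) := rfl
  have hQn : ∏ j ∈ range n, ((∑ l ∈ range (j + 1), q ^ l : ℕ) : ℂ) = Qf q n := rfl
  have hY : ∏ i : Fin n, ∏ j ∈ univ.filter (fun j : Fin n => i < j),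
      (((∑ l ∈ range (ν j + j.val), q ^ l : ℕ) : ℂ) - ((∑ l ∈ range (ν i + i.val), q ^ l : ℕ) : ℂ)) =
      ∏ i : Fin n, ∏ j ∈ univ.filter (fun j : Fin n => i < j),
        ((fun i : Fin n => QC q (ν i + i.val)) j - (fun i : Fin n => QC q (ν i + i.val)) i) := rfl
  rw [hLF, hQn, hY, ← sum_sign_ff q (fun i : Fin n => QC q (ν i + i.val)), Finset.mul_sum]
  rw [unipotentCharacterGL, Finset.sum_mul, Finset.sum_mul]
  apply Finset.sum_congr rfl
  intro κ _
  have hfac : (q : ℂ) ^ (n * (n - 1) * (n - 2) / 6) = ∏ i : Fin n, FF q (κ i).val := by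
    rw [← prod_FF, Equiv.prod_comp κ (fun j : Fin n => FF q j.val)]
  by_cases hc : ∀ i : Fin n, (κ i).val ≤ ν i + i.val
  · rw [if_pos hc, fixedPoint_one]
    have hidx := Cfsg.Agent.S2420.result hq (comp ν κ) (sum_comp hsum hc)
    have hidx' : (Nat.card (GL (Fin n) F ⧸ parabolicGL n F (comp ν κ)) : ℂ) *
        ∏ i : Fin n, Qf q (comp ν κ i) = Qf q n := by
      have := congrArg (Nat.cast : ℕ → ℂ) hidx
      simp only [Nat.cast_mul, Nat.cast_prod] at this
      exact this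
    have hterm : (∏ i : Fin n, ff q (κ i).val (QC q (ν i + i.val))) * ∏ i : Fin n, Qf q (comp ν κ i) =
        (∏ i : Fin n, FF q (κ i).val) * ∏ i : Fin n, Qf q (ν i + i.val) := by
      rw [← Finset.prod_mul_distrib, ← Finset.prod_mul_distrib]
      apply Finset.prod_congr rfl
      intro i _
      exact ff_mul (hc i)
    rw [hfac]
    show ((Equiv.Perm.sign κ : ℤ) : ℂ) * ((Nat.card (GL (Fin n) F ⧸ parabolicGL n F fun i => ν i + i.val - (κ i).val) : ℕ) : ℂ) *
        (∏ i : Fin n, FF q (κ i).val) * ∏ i : Fin n, Qf q (ν i + i.val) = _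
    have hcomp : (fun i : Fin n => ν i + i.val - (κ i).val) = comp ν κ := rfl
    rw [hcomp, mul_assoc, mul_assoc, ← hterm, ← hidx']
    ring
  · rw [if_neg hc]
    push Not at hc
    obtain ⟨i, hi⟩ := hc
    have h0 : ∏ i : Fin n, ff q (κ i).val (QC q (ν i + i.val)) = 0 :=
      Finset.prod_eq_zero (Finset.mem_univ i) (ff_zero_of_lt hi)
    rw [h0]
    ring

end Cfsg.Agent.Lib.GLUnip.Degree
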