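import Mathlib
import Cfsg.Agent.Lib.GLUnip.Count

/-!
The bideterminantal identity for numbers of contingency tables (Jacobi-Trudi).
-/

set_option autoImplicit false
set_option linter.unusedSectionVars false

namespace Cfsg.Agent.Lib.GLUnip.Poly

open Finset
open Cfsg.Agent.Lib.GLUnip.Count

variable {n : ℕ}

/-- The polynomial ring. -/
abbrev Rg (n : ℕ) := MvPolynomial (Fin n) ℤ

/-- The geometric series in `x_i t`. -/
noncomputable def geo (i : Fin n) : PowerSeries (Rg n) :=
  PowerSeries.mk fun k => (MvPolynomial.X i) ^ k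

theorem geo_mul (i : Fin n) :
    geo i * (1 - PowerSeries.C (MvPolynomial.X i) * PowerSeries.X) = 1 := by
  ext m
  rw [mul_sub, mul_one, map_sub, ← mul_assoc]
  cases m with
  | zero =>
    simp [geo, PowerSeries.coeff_zero_eq_constantCoeff]
  | succ m =>
    rw [PowerSeries.coeff_succ_mul_X, PowerSeries.coeff_mul_C]
    simp [geo, PowerSeries.coeff_mk, pow_succ, PowerSeries.coeff_one]

/-- The generating series of complete symmetric polynomials. -/
noncomputable def HH : PowerSeries (Rg n) := ∏ i, geo i

/-- The complete symmetric polynomial of degree `m`. -/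
noncomputable def hh (m : ℕ) : Rg n := PowerSeries.coeff m (HH (n := n))

theorem hh_zero : hh (n := n) 0 = 1 := by
  rw [hh, PowerSeries.coeff_zero_eq_constantCoeff, HH, map_prod]
  apply Finset.prod_eq_one
  intro i _
  rw [← PowerSeries.coeff_zero_eq_constantCoeff_apply, geo, PowerSeries.coeff_mk, pow_zero]

theorem hh_eq (m : ℕ) :
    hh (n := n) m = ∑ l ∈ finsuppAntidiag (univ : Finset (Fin n)) m,
      MvPolynomial.monomial l (1 : ℤ) := by
  classical
  rw [hh, HH, PowerSeries.coeff_prod]
  apply Finset.sum_congr rfl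
  intro l _
  simp only [geo, PowerSeries.coeff_mk]
  rw [MvPolynomial.monomial_eq, map_one, one_mul, Finsupp.prod_fintype]
  simp

/-- The cofactor polynomial `∏_{i ≠ l} (1 - x_i t)`. -/
noncomputable def EP (l : Fin n) : Polynomial (Rg n) :=
  ∏ i ∈ univ.erase l, (1 - Polynomial.C (MvPolynomial.X i) * Polynomial.X)

theorem EP_coe (l : Fin n) : ((EP l : Polynomial (Rg n)) : PowerSeries (Rg n)) =
    ∏ i ∈ univ.erase l, (1 - PowerSeries.C (MvPolynomial.X i) * PowerSeries.X) := by
  rw [EP, ← Polynomial.coeToPowerSeries.ringHom_apply, map_prod]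
  apply Finset.prod_congr rfl
  intro i _
  rw [map_sub, map_one, map_mul, Polynomial.coeToPowerSeries.ringHom_apply,
    Polynomial.coeToPowerSeries.ringHom_apply, Polynomial.coe_C, Polynomial.coe_X]

theorem EP_mul_HH (l : Fin n) : ((EP l : Polynomial (Rg n)) : PowerSeries (Rg n)) * HH = geo l := by
  classical
  rw [EP_coe, HH, ← Finset.mul_prod_erase univ geo (Finset.mem_univ l), mul_left_comm,
    ← Finset.prod_mul_distrib]
  have : ∏ i ∈ univ.erase l,
      ((1 - PowerSeries.C (MvPolynomial.X i) * PowerSeries.X) * geo i) = (1 : PowerSeries (Rg n)) := by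
    apply Finset.prod_eq_one
    intro i _
    rw [mul_comm, geo_mul]
  rw [this, mul_one]

theorem EP_coeff (l : Fin n) {k : ℕ} (hk : n ≤ k) : (EP l).coeff k = 0 := by
  apply Polynomial.coeff_eq_zero_of_natDegree_lt
  have h1 : (EP l).natDegree ≤ ∑ i ∈ univ.erase l,
      (1 - Polynomial.C (MvPolynomial.X i : Rg n) * Polynomial.X).natDegree :=
    Polynomial.natDegree_prod_le _ _
  have h2 : ∑ i ∈ univ.erase l,
      (1 - Polynomial.C (MvPolynomial.X i : Rg n) * Polynomial.X).natDegree ≤
      ∑ i ∈ univ.erase l, 1 := by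
    apply Finset.sum_le_sum
    intro i _
    compute_degree
  have h3 : ∑ i ∈ (univ : Finset (Fin n)).erase l, 1 = n - 1 := by
    simp [Finset.card_erase_of_mem]
  have := l.2
  omega

/-- The expansion of a power in complete symmetric polynomials. -/
theorem key (α : ℕ) (l : Fin n) :
    (MvPolynomial.X l : Rg n) ^ α =
      ∑ k : Fin n, (if k.val ≤ α then hh (α - k.val) else 0) * (EP l).coeff k.val := by
  have h0 := congrArg (PowerSeries.coeff α) (EP_mul_HH l)
  rw [geo, PowerSeries.coeff_mk, PowerSeries.coeff_mul,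
    Finset.Nat.sum_antidiagonal_eq_sum_range_succ_mk] at h0
  rw [← h0]
  let g : ℕ → Rg n := fun k => (if k ≤ α then hh (α - k) else 0) * (EP l).coeff k
  have h1 : ∑ k ∈ range (α + 1), PowerSeries.coeff k ((EP l : Polynomial (Rg n)) : PowerSeries (Rg n)) *
      PowerSeries.coeff (α - k) (HH (n := n)) = ∑ k ∈ range (α + 1), g k := by
    apply Finset.sum_congr rfl
    intro k hk
    have hk' : k ≤ α := by
      have := Finset.mem_range.mp hk
      omega
    simp only [g, if_pos hk', Polynomial.coeff_coe, hh]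
    ring
  have h2 : ∑ k ∈ range (α + 1), g k = ∑ k ∈ range (α + 1 + n), g k := by
    apply Finset.sum_subset
    · intro k hk
      simp only [Finset.mem_range] at hk ⊢
      omega
    · intro k _ hk
      have : ¬ k ≤ α := by
        simp only [Finset.mem_range] at hk
        omega
      simp [g, this]
  have h3 : ∑ k : Fin n, (if k.val ≤ α then hh (α - k.val) else 0) * (EP l).coeff k.val =
      ∑ k ∈ range n, g k := Fin.sum_univ_eq_sum_range g n
  have h4 : ∑ k ∈ range n, g k = ∑ k ∈ range (α + 1 + n), g k := by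
    apply Finset.sum_subset
    · intro k hk
      simp only [Finset.mem_range] at hk ⊢
      omega
    · intro k _ hk
      have : n ≤ k := by
        simp only [Finset.mem_range] at hk
        omega
      simp [g, EP_coeff l this]
  simp only [] at h1 ⊢
  rw [h1, h2, h3, h4]

/-- The matrix of powers. -/
noncomputable def AA (lam : Fin n → ℕ) : Matrix (Fin n) (Fin n) (Rg n) :=
  Matrix.of fun i l => (MvPolynomial.X l) ^ lam i

/-- The Jacobi-Trudi matrix. -/
noncomputable def HM (lam : Fin n → ℕ) : Matrix (Fin n) (Fin n) (Rg n) :=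
  Matrix.of fun i k => if k.val ≤ lam i then hh (lam i - k.val) else 0

/-- The cofactor matrix. -/
noncomputable def MM : Matrix (Fin n) (Fin n) (Rg n) :=
  Matrix.of fun k l => (EP l).coeff k.val

theorem AA_eq (lam : Fin n → ℕ) : AA lam = HM lam * MM := by
  ext1 i l
  rw [Matrix.mul_apply]
  exact key (lam i) l

theorem det_HM_delta : (HM (fun i : Fin n => i.val)).det = 1 := by
  rw [Matrix.det_of_isLowerTriangular]
  · apply Finset.prod_eq_one
    intro i _
    simp [HM, hh_zero]
  · intro a b hab
    have hab' : a < b := hab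
    simp only [HM, Matrix.of_apply]
    rw [if_neg]
    simp only [not_le]
    exact hab'

theorem det_AA (lam : Fin n → ℕ) : (AA lam).det = (HM lam).det * (AA fun i : Fin n => i.val).det := by
  rw [AA_eq lam, AA_eq (fun i : Fin n => i.val), Matrix.det_mul, Matrix.det_mul, det_HM_delta, one_mul]

theorem C_int (z : ℤ) : (MvPolynomial.C z : Rg n) = (z : Rg n) :=
  eq_intCast (MvPolynomial.C : ℤ →+* Rg n) z

/-- The monomial of an exponent vector. -/
noncomputable def toF (a : Fin n → ℕ) : Fin n →₀ ℕ := Finsupp.equivFunOnFinite.symm a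

theorem toF_apply (a : Fin n → ℕ) (i : Fin n) : toF a i = a i := rfl

theorem prod_X_pow (a : Fin n → ℕ) :
    ∏ i, (MvPolynomial.X i : Rg n) ^ a i = MvPolynomial.monomial (toF a) 1 := by
  rw [MvPolynomial.monomial_eq, map_one, one_mul, Finsupp.prod_fintype]
  · rfl
  · simp

theorem det_AA_eq (lam : Fin n → ℕ) :
    (AA lam).det = ∑ w : Equiv.Perm (Fin n),
      ((Equiv.Perm.sign w : ℤ) : Rg n) * MvPolynomial.monomial (toF (lam ∘ w)) 1 := by
  rw [Matrix.det_apply]
  apply Finset.sum_congr rfl
  intro w _
  rw [Units.smul_def, zsmul_eq_mul]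
  congr 1
  exact prod_X_pow (lam ∘ w)

/-- The product of complete symmetric polynomials. -/
noncomputable def hp (a : Fin n → ℕ) : Rg n := ∏ i, hh (a i)

theorem det_HM_eq (lam : Fin n → ℕ) :
    (HM lam).det = ∑ κ : Equiv.Perm (Fin n),
      ((Equiv.Perm.sign κ : ℤ) : Rg n) *
        (if ∀ i, (κ i).val ≤ lam i then hp (fun i => lam i - (κ i).val) else 0) := by
  rw [← Matrix.det_transpose, Matrix.det_apply]
  apply Finset.sum_congr rfl
  intro κ _
  rw [Units.smul_def, zsmul_eq_mul]
  congr 1
  simp only [Matrix.transpose_apply, HM, Matrix.of_apply]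
  rw [Finset.prod_ite_zero]
  simp [hp]

/-- The number of tables as a coefficient. -/
noncomputable def NN (a b : Fin n → ℕ) : ℤ := MvPolynomial.coeff (toF b) (hp a)

theorem strict_aux {lam mu : Fin n → ℕ} (hl : StrictMono lam) (hm : StrictMono mu)
    {w : Equiv.Perm (Fin n)} (h : lam ∘ w = mu) : w = 1 ∧ lam = mu := by
  have hw : StrictMono w := by
    intro a b hab
    have := hm hab
    rw [← h] at this
    exact hl.lt_iff_lt.mp this
  have h1 : w = 1 := by
    ext x
    have := congrArg (fun e : Fin n ≃o Fin n => e x)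
      (Subsingleton.elim (hw.orderIsoOfSurjective w w.surjective) (OrderIso.refl _))
    simpa using congrArg Fin.val this
  subst h1
  exact ⟨rfl, h⟩

theorem toF_inj {a b : Fin n → ℕ} : toF a = toF b ↔ a = b :=
  Finsupp.equivFunOnFinite.symm.injective.eq_iff

/-- The bideterminantal identity. -/
theorem main_identity {lam mu : Fin n → ℕ} (hl : StrictMono lam) (hm : StrictMono mu) :
    ∑ κ : Equiv.Perm (Fin n), ∑ κ' : Equiv.Perm (Fin n),
      ((Equiv.Perm.sign κ : ℤ) * (Equiv.Perm.sign κ' : ℤ)) *
        (if (∀ i, (κ i).val ≤ lam i) ∧ (∀ i, (κ' i).val ≤ mu i) then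
          NN (fun i => lam i - (κ i).val) (fun i => mu i - (κ' i).val) else 0) =
      if lam = mu then 1 else 0 := by
  classical
  have h0 := congrArg (MvPolynomial.coeff (toF mu)) (det_AA lam)
  -- left side
  have hL : MvPolynomial.coeff (toF mu) (AA lam).det = if lam = mu then 1 else 0 := by
    rw [det_AA_eq, MvPolynomial.coeff_sum]
    by_cases hlm : lam = mu
    · rw [if_pos hlm, Finset.sum_eq_single (1 : Equiv.Perm (Fin n))]
      · subst hlm
        simp [MvPolynomial.coeff_monomial]
      · intro w _ hw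
        have h1 : toF (lam ∘ w) ≠ toF mu := by
          intro e
          exact hw (strict_aux hl hm (toF_inj.mp e)).1
        rw [← C_int, MvPolynomial.coeff_C_mul, MvPolynomial.coeff_monomial, if_neg h1,
          mul_zero]
      · intro h
        exact absurd (Finset.mem_univ _) h
    · rw [if_neg hlm]
      apply Finset.sum_eq_zero
      intro w _
      have h1 : toF (lam ∘ w) ≠ toF mu := by
        intro e
        exact hlm (strict_aux hl hm (toF_inj.mp e)).2
      rw [← C_int, MvPolynomial.coeff_C_mul, MvPolynomial.coeff_monomial, if_neg h1,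
        mul_zero]
  rw [hL] at h0
  rw [h0, det_HM_eq, det_AA_eq, Finset.sum_mul_sum, MvPolynomial.coeff_sum]
  apply Finset.sum_congr rfl
  intro κ _
  rw [MvPolynomial.coeff_sum]
  apply Finset.sum_congr rfl
  intro κ' _
  have h1 : ((Equiv.Perm.sign κ : ℤ) : Rg n) *
        (if ∀ i, (κ i).val ≤ lam i then hp (fun i => lam i - (κ i).val) else 0) *
      (((Equiv.Perm.sign κ' : ℤ) : Rg n) * MvPolynomial.monomial (toF ((fun i : Fin n => i.val) ∘ κ')) 1) =
      MvPolynomial.C ((Equiv.Perm.sign κ : ℤ) * (Equiv.Perm.sign κ' : ℤ)) *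
        ((if ∀ i, (κ i).val ≤ lam i then hp (fun i => lam i - (κ i).val) else 0) *
          MvPolynomial.monomial (toF ((fun i : Fin n => i.val) ∘ κ')) 1) := by
    rw [map_mul, C_int, C_int]
    ring
  rw [h1, MvPolynomial.coeff_C_mul, MvPolynomial.coeff_mul_monomial']
  congr 1
  have hle : toF ((fun i : Fin n => i.val) ∘ κ') ≤ toF mu ↔ ∀ i, (κ' i).val ≤ mu i := Iff.rfl
  have hsub : toF mu - toF ((fun i : Fin n => i.val) ∘ κ') = toF (fun i => mu i - (κ' i).val) := by
    ext i
    rfl
  by_cases h2 : ∀ i, (κ i).val ≤ lam i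
  · by_cases h3 : ∀ i, (κ' i).val ≤ mu i
    · rw [if_pos h2, if_pos (hle.mpr h3), if_pos ⟨h2, h3⟩, mul_one, hsub]
      rfl
    · rw [if_neg (fun h => h3 (hle.mp h)), if_neg (fun h => h3 h.2)]
  · rw [if_neg h2, if_neg (fun h => h2 h.1)]
    simp

/-- `NN` counts the tables. -/
theorem NN_eq_card (a b : Fin n → ℕ) : NN a b = (Nat.card (Tab a b) : ℤ) := by
  classical
  have h1 : hp a = ∑ L ∈ Fintype.piFinset fun i => finsuppAntidiag (univ : Finset (Fin n)) (a i),
      MvPolynomial.monomial (∑ i, L i) (1 : ℤ) := by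
    rw [hp]
    simp_rw [hh_eq]
    rw [Finset.prod_univ_sum]
    apply Finset.sum_congr rfl
    intro L _
    rw [MvPolynomial.monomial_sum_one]
  rw [NN, h1, MvPolynomial.coeff_sum]
  simp only [MvPolynomial.coeff_monomial]
  rw [Finset.sum_boole]
  congr 1
  -- the bijection
  let S := (Fintype.piFinset fun i => finsuppAntidiag (univ : Finset (Fin n)) (a i)).filter
    fun L => ∑ i, L i = toF b
  show S.card = _
  have e : {L // L ∈ S} ≃ Tab a b :=
    { toFun := fun L => ⟨fun i j => L.1 i j, by
        have hL := L.2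
        simp only [S, Finset.mem_filter, Fintype.mem_piFinset, Finset.mem_finsuppAntidiag] at hL
        exact ⟨fun i => (hL.1 i).1, fun j => by
          have := DFunLike.congr_fun hL.2 j
          rw [Finsupp.finsetSum_apply] at this
          exact this⟩⟩
      invFun := fun t => ⟨fun i => Finsupp.equivFunOnFinite.symm (t.1 i), by
        simp only [S, Finset.mem_filter, Fintype.mem_piFinset, Finset.mem_finsuppAntidiag]
        refine ⟨fun i => ⟨t.2.1 i, Finset.subset_univ _⟩, ?_⟩
        ext j
        rw [Finsupp.finsetSum_apply]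
        exact t.2.2 j⟩
      left_inv := fun L => by
        apply Subtype.ext
        funext i
        ext j
        rfl
      right_inv := fun t => by
        apply Subtype.ext
        rfl }
  rw [← Nat.card_congr e, Nat.card_eq_fintype_card, Fintype.card_coe]

end Cfsg.Agent.Lib.GLUnip.Poly
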