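import Mathlib
import Cfsg.Agent.Lib.GLUnip.Poly
import Cfsg.Agent.Lib.GLUnip.Degree
import Cfsg.Agent.Lib.Char.Virtual
import Cfsg.Agent.Lib.Char.PermChar

/-!
Steinberg's characters of `GL_n(q)`: orthonormality and irreducibility.
-/

set_option autoImplicit false
set_option linter.unusedSectionVars false
set_option linter.style.haveILetI false

namespace Cfsg.Agent.Lib.GLUnip.Main

open Finset Cfsg
open Cfsg.Agent.Lib.GLUnip.Count Cfsg.Agent.Lib.GLUnip.Poly Cfsg.Agent.Lib.GLUnip.Degree
open Cfsg.Agent.Lib.Char.Virtual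
open scoped MatrixGroups ComplexConjugate

variable {n : ℕ} {F : Type*} [Field F] [Fintype F]

/-- The inner product of flag characters in the form of `classInner`. -/
theorem classInner_fix [Fintype (GL (Fin n) F)] (a b : Fin n → ℕ) (ha : ∑ i, a i = n) (hb : ∑ i, b i = n) :
    classInner (fixedPointCharacter (parabolicGL n F a)) (fixedPointCharacter (parabolicGL n F b)) =
      (Nat.card (Tab a b) : ℂ) := by
  rw [← card_orbits_GL (F := F) a b ha hb, ← inner_fix, classInner]
  congr 1
  apply Finset.sum_congr rfl
  intro g _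
  congr 1
  simp [fixedPointCharacter]

/-- The summand. -/
noncomputable def coef (ν : Fin n → ℕ) (κ : Equiv.Perm (Fin n)) : ℂ :=
  if ∀ i : Fin n, (κ i).val ≤ ν i + i.val then ((Equiv.Perm.sign κ : ℤ) : ℂ) else 0

theorem unipotent_eq (ν : Fin n → ℕ) :
    unipotentCharacterGL n F ν =
      ∑ κ : Equiv.Perm (Fin n), coef ν κ • fixedPointCharacter (parabolicGL n F (comp ν κ)) := by
  funext g
  rw [Finset.sum_apply]
  show ∑ κ : Equiv.Perm (Fin n), _ = _
  apply Finset.sum_congr rfl
  intro κ _
  simp only [Pi.smul_apply, smul_eq_mul, coef]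
  split_ifs
  · rfl
  · simp

/-- The class function is a generalized character. -/
theorem isGeneralized_unipotent (ν : Fin n → ℕ) :
    IsGeneralizedCharacter (GL (Fin n) F) (unipotentCharacterGL n F ν) := by
  classical
  rw [unipotent_eq]
  apply isGeneralized_finset_sum
  intro κ _
  simp only [coef]
  split_ifs
  · apply isGeneralized_intCast_smul
    apply isGeneralized_of_isCharacter
    letI : Fintype (GL (Fin n) F ⧸ parabolicGL n F (comp ν κ)) := Fintype.ofFinite _
    exact Cfsg.Agent.Lib.Char.PermChar.isCharacter_perm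
  · rw [zero_smul]
    exact isGeneralized_zero

/-- The inner products of the class functions. -/
theorem classInner_unipotent [Fintype (GL (Fin n) F)] {ν ν' : Fin n → ℕ} (hm : Monotone ν) (hs : ∑ i, ν i = n)
    (hm' : Monotone ν') (hs' : ∑ i, ν' i = n) :
    classInner (unipotentCharacterGL n F ν) (unipotentCharacterGL n F ν') = if ν = ν' then 1 else 0 := by
  classical
  have hstrict : ∀ {μ : Fin n → ℕ}, Monotone μ → StrictMono fun i : Fin n => μ i + i.val := by
    intro μ hμ a b hab
    have h1 := hμ hab.le
    have h2 : a.val < b.val := hab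
    show μ a + a.val < μ b + b.val
    omega
  have hid := main_identity (hstrict hm) (hstrict hm')
  rw [unipotent_eq, unipotent_eq, classInner_finset_sum_left]
  have h1 : ∀ κ : Equiv.Perm (Fin n),
      classInner (coef ν κ • fixedPointCharacter (parabolicGL n F (comp ν κ)))
        (∑ κ' : Equiv.Perm (Fin n), coef ν' κ' • fixedPointCharacter (parabolicGL n F (comp ν' κ'))) =
      ∑ κ' : Equiv.Perm (Fin n), ((((Equiv.Perm.sign κ : ℤ) * (Equiv.Perm.sign κ' : ℤ)) *
        (if (∀ i : Fin n, (κ i).val ≤ ν i + i.val) ∧ (∀ i : Fin n, (κ' i).val ≤ ν' i + i.val) then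
          NN (fun i : Fin n => ν i + i.val - (κ i).val) (fun i : Fin n => ν' i + i.val - (κ' i).val) else 0) : ℤ) : ℂ) := by
    intro κ
    rw [classInner_finset_sum_right]
    apply Finset.sum_congr rfl
    intro κ' _
    rw [classInner_smul_left, classInner_smul_right]
    by_cases hc : ∀ i : Fin n, (κ i).val ≤ ν i + i.val
    · by_cases hc' : ∀ i : Fin n, (κ' i).val ≤ ν' i + i.val
      · rw [classInner_fix _ _ (sum_comp hs hc) (sum_comp hs' hc'), if_pos ⟨hc, hc'⟩, NN_eq_card]
        simp only [coef, if_pos hc, if_pos hc']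
        push_cast
        rw [map_intCast, ← mul_assoc]
        rfl
      · rw [if_neg (fun h => hc' h.2)]
        simp [coef, hc']
    · rw [if_neg (fun h => hc h.1)]
      simp [coef, hc]
  simp_rw [h1]
  have h2 := congrArg (Int.cast : ℤ → ℂ) hid
  push_cast at h2 ⊢
  rw [h2]
  have h3 : ((fun i : Fin n => ν i + i.val) = fun i : Fin n => ν' i + i.val) ↔ ν = ν' := by
    constructor
    · intro h
      funext i
      have := congrFun h i
      simpa using this
    · rintro rfl
      rfl
  simp only [h3]

/-- Irreducibility. -/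
theorem isIrr_unipotent {ν : Fin n → ℕ} (hm : Monotone ν) (hs : ∑ i, ν i = n) :
    IsIrrCharacter (GL (Fin n) F) (unipotentCharacterGL n F ν) := by
  classical
  letI : Fintype (GL (Fin n) F) := Fintype.ofFinite _
  have hn := classInner_unipotent (F := F) hm hs hm hs
  rw [if_pos rfl] at hn
  rcases isSignedIrr_of_norm_one (isGeneralized_unipotent ν) hn with h | h
  · exact h
  · exfalso
    obtain ⟨d, hd, hde⟩ := exists_degree_of_isIrr h
    have hq : 2 ≤ Fintype.card F := Fintype.one_lt_card
    have hf := degree_formula (F := F) rfl ν hs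
    set q := Fintype.card F with hqq
    have hval : unipotentCharacterGL n F ν 1 = -(d : ℂ) := by
      have : (-unipotentCharacterGL n F ν) 1 = (d : ℂ) := hde
      rw [Pi.neg_apply] at this
      rw [← this, neg_neg]
    rw [hval] at hf
    -- positivity of both sides
    have hQmono : ∀ {a b : ℕ}, a < b → ((∑ l ∈ range a, q ^ l : ℕ) : ℝ) < ((∑ l ∈ range b, q ^ l : ℕ) : ℝ) := by
      intro a b hab
      have h1 : ∑ l ∈ range a, q ^ l < ∑ l ∈ range b, q ^ l := by
        apply Finset.sum_lt_sum_of_subset (Finset.range_subset_range.mpr hab.le)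
          (Finset.mem_range.mpr hab)
        · simp
        · exact pow_pos (by omega) _
        · intro j _ _
          positivity
      exact_mod_cast h1
    have hRHS : ∃ r : ℝ, 0 < r ∧ (∏ j ∈ range n, ((∑ l ∈ range (j + 1), q ^ l : ℕ) : ℂ)) *
        ∏ i : Fin n, ∏ j ∈ univ.filter (fun j : Fin n => i < j),
          (((∑ l ∈ range (ν j + j.val), q ^ l : ℕ) : ℂ) - ((∑ l ∈ range (ν i + i.val), q ^ l : ℕ) : ℂ)) = (r : ℂ) := by
      refine ⟨(∏ j ∈ range n, ((∑ l ∈ range (j + 1), q ^ l : ℕ) : ℝ)) *
        ∏ i : Fin n, ∏ j ∈ univ.filter (fun j : Fin n => i < j),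
          (((∑ l ∈ range (ν j + j.val), q ^ l : ℕ) : ℝ) - ((∑ l ∈ range (ν i + i.val), q ^ l : ℕ) : ℝ)), ?_, ?_⟩
      · apply mul_pos
        · apply Finset.prod_pos
          intro j _
          have : 0 < ∑ l ∈ range (j + 1), q ^ l := by
            apply Finset.sum_pos
            · intro l _
              exact pow_pos (by omega) _
            · simp
          exact_mod_cast this
        · apply Finset.prod_pos
          intro i _
          apply Finset.prod_pos
          intro j hj
          have hij : i < j := (Finset.mem_filter.mp hj).2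
          have h1 : ν i + i.val < ν j + j.val := by
            have := hm hij.le
            have h2 : i.val < j.val := hij
            omega
          exact sub_pos.mpr (hQmono h1)
      · push_cast
        rfl
    obtain ⟨r, hr, hre⟩ := hRHS
    rw [hre] at hf
    have hLHS : ∃ s : ℝ, 0 < s ∧ (q : ℂ) ^ (n * (n - 1) * (n - 2) / 6) *
        ∏ i : Fin n, ∏ j ∈ range (ν i + i.val), ((∑ l ∈ range (j + 1), q ^ l : ℕ) : ℂ) = (s : ℂ) := by
      refine ⟨(q : ℝ) ^ (n * (n - 1) * (n - 2) / 6) *
        ∏ i : Fin n, ∏ j ∈ range (ν i + i.val), ((∑ l ∈ range (j + 1), q ^ l : ℕ) : ℝ), ?_, ?_⟩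
      · apply mul_pos
        · apply pow_pos
          exact_mod_cast (by omega : 0 < q)
        · apply Finset.prod_pos
          intro i _
          apply Finset.prod_pos
          intro j _
          have : 0 < ∑ l ∈ range (j + 1), q ^ l := by
            apply Finset.sum_pos
            · intro l _
              exact pow_pos (by omega) _
            · simp
          exact_mod_cast this
      · push_cast
        rfl
    obtain ⟨s, hs', hse⟩ := hLHS
    rw [mul_assoc, hse] at hf
    have h3 : (-(d : ℝ)) * s = r := by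
      have : ((-(d : ℝ) * s : ℝ) : ℂ) = (r : ℂ) := by
        push_cast
        exact hf
      exact_mod_cast this
    have h4 : (0 : ℝ) ≤ d := Nat.cast_nonneg d
    nlinarith

/-- Distinctness. -/
theorem eq_of_unipotent_eq {ν ν' : Fin n → ℕ} (hm : Monotone ν) (hs : ∑ i, ν i = n)
    (hm' : Monotone ν') (hs' : ∑ i, ν' i = n)
    (h : unipotentCharacterGL n F ν = unipotentCharacterGL n F ν') : ν = ν' := by
  classical
  letI : Fintype (GL (Fin n) F) := Fintype.ofFinite _
  have h1 := classInner_unipotent (F := F) hm hs hm' hs'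
  have h2 := classInner_unipotent (F := F) hm hs hm hs
  rw [if_pos rfl] at h2
  rw [← h, h2] at h1
  by_contra hne
  rw [if_neg hne] at h1
  exact one_ne_zero h1

end Cfsg.Agent.Lib.GLUnip.Main
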